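import Cfsg.Agent.H357.CV.Cross
import Cfsg.Agent.H360.CV.Psl
import Cfsg.Agent.H803.CV.PslThree
import Cfsg.Agent.H367.CV.PsuOdd
import Cfsg.Agent.H381.CV.RowX4

/-!
# S3442: the rows of the cross characteristic layer, in the form of `XRows` (helper357)
-/

set_option autoImplicit false

namespace Cfsg.Agent.H357.CV.Rows

open Cfsg Cfsg.Agent.H373.CV

universe u

theorem x1 (F : Type) [Field F] [Fintype F] (n : ℕ) (hn : 4 ≤ n) (h2 : Fintype.card F ≠ 2) (r : ℕ) (hr : r.Prime)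
    (hrF : ¬ r ∣ Fintype.card F) : Hit.{u, 0} r (Matrix.ProjectiveSpecialLinearGroup (Fin n) F) :=
  H360.CV.hit_psl' hn (Or.inl (by have : 1 < Fintype.card F := Fintype.one_lt_card; omega)) hr hrF

theorem x16 (F : Type) [Field F] [Fintype F] (ho : Odd (Fintype.card F)) (r : ℕ) (hr : r.Prime)
    (hrF : ¬ r ∣ Fintype.card F) : Hit.{u, 0} r (Matrix.ProjectiveSpecialLinearGroup (Fin 3) F) :=
  H803.CV.x16 F ho r hr hrF

theorem x3 (F : Type) [Field F] [Fintype F] (n q : ℕ) (hF : Fintype.card F = q ^ 2) (h5 : 5 ≤ n) (hodd : Odd n)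
    (r : ℕ) (hr : r.Prime) (hrq : ¬ r ∣ q) (hrq1 : ¬ r ∣ q + 1) : Hit.{u, 0} r (PSU n F q) :=
  H367.CV.hit_psu_odd hF h5 hodd hr hrq hrq1

theorem x4 (F : Type) [Field F] [Fintype F] (n q : ℕ) (hF : Fintype.card F = q ^ 2) (h7 : 7 ≤ n) (hodd : Odd n)
    (r : ℕ) (hr : r.Prime) (hrq1 : r ∣ q + 1) (h3 : r = 3 → 3 ∣ n) : Hit.{u, 0} r (PSU n F q) := by
  obtain ⟨p, hp⟩ := CharP.exists F
  obtain ⟨e, hprime, he⟩ := FiniteField.card F p
  have := Fact.mk hprime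
  refine H381.CV.hit_psu_x4 (p := p) hF h7 hodd hr ?_ hrq1 (by
    by_cases h : r = 3
    · exact Or.inr (h3 h)
    · exact Or.inl h)
  rintro rfl
  have h1 : r ∣ q := hr.dvd_of_dvd_pow (by
    rw [← hF, he]
    exact dvd_pow_self r e.ne_zero)
  have h2 := (Nat.dvd_add_right h1).1 hrq1
  exact hr.one_lt.ne' (Nat.dvd_one.1 h2)

end Cfsg.Agent.H357.CV.Rows
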